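import Cfsg.Agent.H520.CcpNE

/-!
# Minimal invariant residues (helper520, S4114)

* `gd_A` : the nodes of a minimal invariant residue with a solvable `[P, α]` commute, and `[P, α]` moves along all of them.
-/

set_option autoImplicit false
set_option linter.unusedSectionVars false

open scoped Pointwise

namespace Cfsg.Agent.H520.JA

open Cfsg.Agent.Tits.Core Cfsg.Agent.Tits.Core.Bldg Cfsg.Agent.Tits Cfsg.Agent.Tits.Exchange
open Cfsg.Agent.FixBN (Sys)
open Cfsg.Agent.FixOdd (Tw)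
open Cfsg.Agent.H520.NS Cfsg.Agent.H520.NE

variable {I : Type*} {M : CoxeterMatrix I} {W : Type*} [Group W] {cs : CoxeterSystem M W} {C : Type*}
  {Δ : Bldg cs C} {G : Type*} [Group G] [MulAction G C] {t : Tw Δ G}

local prefix:100 "ℓ" => cs.length
local prefix:100 "s" => cs.simple

theorem cM_inv {G : Type*} [Group G] {α : MulAut G} {P : Subgroup G} (hP : ∀ m ∈ P, α m ∈ P) :
    ∀ k ∈ cM α P, α k ∈ cM α P := by
  intro k hk
  unfold cM at hk
  induction hk using Subgroup.closure_induction with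
  | mem y hy =>
    obtain ⟨m, hm, rfl⟩ := hy
    rw [map_mul, map_inv]
    exact mem_cM α (hP m hm)
  | one => rw [map_one]; exact one_mem _
  | mul a b _ _ ha hb => rw [map_mul]; exact mul_mem ha hb
  | inv a _ ha => rw [map_inv]; exact inv_mem ha

variable [Finite G] [Finite I] [Finite C] {r : ℕ} [hr : Fact r.Prime] [F : OppRes.Cox cs]

/-- invariance of the stabiliser of an invariant residue -/
theorem stab_inv' (S : Sys Δ G r) {J : Set I} {x : C} (hst : t.Stab J) (hx : t.θ x ∈ Δ.Res J x) :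
    ∀ m ∈ MulAction.stabilizer G (Δ.Res J x), t.τ m ∈ MulAction.stabilizer G (Δ.Res J x) := by
  intro m hm
  rw [mem_stab_res S] at hm ⊢
  have h1 := t.θ_mem_Res hst hm
  rw [t.θ_smul] at h1
  have h3 : t.τ m • t.θ x ∈ Δ.Res J (t.τ m • x) := by
    rw [mem_Res, S.iso]
    exact hx
  exact Δ.mem_Res_trans (Δ.mem_Res_trans hx h1) (Δ.mem_Res_symm h3)

/-- **The nodes of a minimal invariant residue.** -/
theorem gd_A (S : Sys Δ G r) (hth : Δ.Thick)
    (hD : ∀ x y x' y' : C, Δ.δ x y = Δ.δ x' y' → ∃ g : G, g • x = x' ∧ g • y = y') {J : Set I} {x : C}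
    (h : t.Gd J x) (hsol : Group.IsSolvable (cM t.τ (MulAction.stabilizer G (Δ.Res J x)))) :
    (∀ i ∈ J, ∀ j ∈ J, s i * s j = s j * s i) ∧
      ∀ j ∈ J, Dst Δ (cM t.τ (MulAction.stabilizer G (Δ.Res J x))) x (s j) := by
  set P := MulAction.stabilizer G (Δ.Res J x) with hP
  have hPinv := stab_inv' S h.st h.mem
  set K := cM t.τ P with hK
  have hKP : K ≤ P := cM_le _ hPinv
  have hKn := cM_conj hPinv
  have hKi := cM_inv hPinv
  have hMA := ma_res S hth hD (T := J) (c := x)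
  set J' : Set I := {j | j ∈ J ∧ Dst Δ K x (s j)} with hJ'
  -- transport to the chambers of the residue
  have hmove : ∀ y ∈ Δ.Res J x, ∃ g ∈ P, g • x = y := by
    intro y hy
    obtain ⟨g, hg, -⟩ := hD x x y y (by rw [Δ.δ_self, Δ.δ_self])
    exact ⟨g, (mem_stab_res S).2 (by rw [hg]; exact hy), hg⟩
  -- the distances lie in `W_J'`
  have key : ∀ n : ℕ, ∀ k ∈ K, ℓ (Δ.δ x (k • x)) = n → Δ.δ x (k • x) ∈ WJ cs J' := by
    intro n
    induction n using Nat.strong_induction_on with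
    | _ n ih =>
      intro k hk hn
      by_cases h1 : Δ.δ x (k • x) = 1
      · rw [h1]; exact one_mem _
      obtain ⟨j, hj⟩ := cs.exists_rightDescent_of_ne_one h1
      have hj : ℓ (Δ.δ x (k • x) * s j) < ℓ (Δ.δ x (k • x)) := hj
      have hkJ : Δ.δ x (k • x) ∈ WJ cs J := (mem_stab_res S).1 (hKP hk)
      have hjJ : j ∈ J := F.descent_mem J _ hkJ j hj
      have hd := rd hMA hKP hKn ⟨k, hk, rfl⟩ hj
      have hjJ' : j ∈ J' := ⟨hjJ, hd⟩
      obtain ⟨k1, hk1, hk1j⟩ := hd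
      obtain ⟨p, hp1, hp2⟩ := Δ.exists_step x (k • x) j
      obtain ⟨g, hg, hgp⟩ := hD x (k1 • x) (k • x) p (hk1j.trans hp1.symm)
      have hgP : g ∈ P := (mem_stab_res S).2 (by rw [hg]; exact hkJ)
      have h2 : g * k1 * g⁻¹ * k ∈ K := mul_mem (hKn g hgP k1 hk1) hk
      have h3 : (g * k1 * g⁻¹ * k) • x = p := by
        rw [mul_smul, ← hg, mul_smul, inv_smul_smul, mul_smul, hgp]
      have h4 := ih _ (by rw [h3, hp2, ← hn]; exact hj) _ h2 rfl
      rw [h3, hp2] at h4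
      have h5 := mul_mem h4 (simple_mem_WJ cs hjJ')
      rwa [mul_assoc, cs.simple_mul_simple_self, mul_one] at h5
  have key' : ∀ y ∈ Δ.Res J x, ∀ k ∈ K, k • y ∈ Δ.Res J' y := by
    intro y hy k hk
    obtain ⟨g, hg, rfl⟩ := hmove y hy
    have h1 := hKn g⁻¹ (inv_mem hg) k hk
    rw [inv_inv] at h1
    have h2 := key _ _ h1 rfl
    rw [mem_Res]
    have h3 := S.iso g x ((g⁻¹ * k * g) • x)
    have h4 : g • (g⁻¹ * k * g) • x = k • g • x := by rw [mul_smul, mul_smul, smul_inv_smul]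
    rw [h4] at h3
    rw [h3]
    exact h2
  -- `J'` is stable
  have hst : t.Stab J' := by
    rintro j ⟨hj, k, hk, hkj⟩
    refine ⟨h.st j hj, ?_⟩
    obtain ⟨g, hg, hgx⟩ := hmove _ h.mem
    have h1 : Δ.δ (t.θ x) (t.τ k • t.θ x) = s (t.σ j) := by
      rw [← t.θ_smul, t.δ_θ, hkj, t.φ_simple]
    have h2 := hKn g⁻¹ (inv_mem hg) _ (hKi k hk)
    rw [inv_inv] at h2
    refine ⟨_, h2, ?_⟩
    have h3 := S.iso g x ((g⁻¹ * t.τ k * g) • x)
    have h4 : g • (g⁻¹ * t.τ k * g) • x = t.τ k • g • x := by rw [mul_smul, mul_smul, smul_inv_smul]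
    rw [h4, hgx, h1] at h3
    exact h3.symm
  -- `θ` stabilises the residue
  have hJJ : J' ⊆ J := fun j hj => hj.1
  have hfix : t.θ x ∈ Δ.Res J' x := by
    have h1 : Δ.Res J' x ⊆ Δ.Res J' (t.θ x) := by
      refine FixOdd.res_subset S hth fun g hg => ?_
      have hgx : g • x ∈ Δ.Res J' x := by
        rw [← hg]
        exact Set.smul_mem_smul_set (Δ.self_mem_Res _ _)
      have hgP : g ∈ P := (mem_stab_res S).2 (Δ.Res_mono hJJ x hgx)
      have h2 := t.θ_mem_Res hst hgx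
      rw [t.θ_smul] at h2
      have h3 := key' _ h.mem _ (mem_cM t.τ hgP)
      have h4 : t.τ g • t.θ x ∈ Δ.Res J' (g • t.θ x) := by
        have h5 : t.τ g • t.θ x = g • (g⁻¹ * t.τ g) • t.θ x := by rw [← mul_smul, mul_inv_cancel_left]
        rw [h5, mem_Res, S.iso]
        exact h3
      rw [S.smul_Res]
      exact Δ.Res_eq_of_mem (Δ.mem_Res_trans h2 (Δ.mem_Res_symm h4))
    exact Δ.mem_Res_symm (h1 (Δ.self_mem_Res _ _))
  have he : J' = J := h.min x (Δ.self_mem_Res _ _) J' hJJ hst hfix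
  have hii : ∀ j ∈ J, Dst Δ K x (s j) := fun j hj => by
    rw [← he] at hj
    exact hj.2
  refine ⟨fun i hi j hj => ?_, hii⟩
  by_contra hne
  exact no_node hMA hKP hKn hsol hi hj hne (hii i hi)

end Cfsg.Agent.H520.JA
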